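import Cfsg.Agent.FGS2.J2.SchurTwoClass
import Cfsg.Agent.FGS4.SchurSylow.Lifts
import Cfsg.Agent.FGS2.SchurTools

/-! Extraspecial Sylow subgroups of order a cube of a prime in stem extensions. -/

set_option autoImplicit false
set_option maxHeartbeats 1000000

namespace Cfsg.Agent.FGS2.He

open Subgroup Cfsg.Agent.FGS4.SchurSylow
open scoped commutatorElement

universe u v

variable {Γ : Type u} [Group Γ] {Q : Type v} [Group Q] {σ : Γ →* Q}

theorem extraspecial_sylow {p : ℕ} [Fact p.Prime] {G : Type v} [Group G] [Finite G] (hG : ∀ S : Sylow p G, Nat.card (S : Subgroup G) = p ^ 3) {u v w : G} (hu : u ^ p = 1) (hv : v ^ p = 1) (hw : w ^ p = 1)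
    (hcomm : ⁅u, v⁆ = w) (huw : u * w = w * u) (hvw : v * w = w * v) (hw1 : w ≠ 1) :
    ∃ S : Sylow p G, (S : Subgroup G) = Subgroup.closure {u, v} := by
  have pz : ∀ {x : G}, x ^ p = 1 → IsPGroup p (Subgroup.zpowers x) := by
    rintro x hx ⟨y, i, rfl⟩
    refine ⟨1, Subtype.ext ?_⟩
    show (x ^ i) ^ (p ^ 1) = 1
    rw [pow_one, ← zpow_natCast, ← zpow_mul, mul_comm, zpow_mul, zpow_natCast, hx, one_zpow]
  set A := Subgroup.closure ({w, v} : Set G) with hA
  have hwA : w ∈ A := Subgroup.subset_closure (by simp)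
  have hvA : v ∈ A := Subgroup.subset_closure (by simp)
  have hAc : ∀ x ∈ A, ∀ y ∈ A, x * y = y * x := by
    have hc := Subgroup.isMulCommutative_closure (k := ({w, v} : Set G)) (by
      rintro a (rfl | rfl) b (rfl | rfl) <;> first | rfl | exact hvw | exact hvw.symm)
    exact fun x hx y hy => congrArg Subtype.val (hc.is_comm.comm ⟨x, hx⟩ ⟨y, hy⟩)
  have hAp : IsPGroup p A := by
    rintro ⟨x, hx⟩
    refine ⟨1, Subtype.ext ?_⟩
    show x ^ (p ^ 1) = 1
    rw [pow_one]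
    induction hx using Subgroup.closure_induction with
    | mem a ha => rcases ha with rfl | rfl <;> assumption
    | one => exact one_pow p
    | mul a b ha hb iha ihb => rw [(show Commute a b from hAc a ha b hb).mul_pow, iha, ihb, one_mul]
    | inv a ha iha => rw [inv_pow, iha, inv_one]
  have hnorm : Subgroup.zpowers u ≤ Subgroup.normalizer (A : Set G) := by
    rw [Subgroup.zpowers_le]
    refine Subgroup.mem_normalizer_fintype fun x hx => ?_
    have hle : A ≤ A.comap (MulAut.conj u).toMonoidHom := by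
      rw [hA, Subgroup.closure_le]
      rintro y (rfl | rfl)
      · show u * y * u⁻¹ ∈ A
        rw [huw, mul_inv_cancel_right]; exact hwA
      · show u * y * u⁻¹ ∈ A
        have e : u * y * u⁻¹ = w * y := by rw [← hcomm, commutatorElement_def]; group
        rw [e]; exact mul_mem hwA hvA
    exact hle hx
  have hT : IsPGroup p ↥(A ⊔ Subgroup.zpowers u) := hAp.to_sup_of_normal_left' (pz hu) hnorm
  obtain ⟨S, hS⟩ := hT.exists_le_sylow
  have hle : Subgroup.closure ({u, v} : Set G) ≤ A ⊔ Subgroup.zpowers u := by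
    rw [Subgroup.closure_le]
    rintro y (rfl | rfl)
    · exact Subgroup.mem_sup_right (Subgroup.mem_zpowers y)
    · exact Subgroup.mem_sup_left hvA
  refine ⟨S, ?_⟩
  set T := Subgroup.closure ({u, v} : Set G) with hTd
  have huT : u ∈ T := Subgroup.subset_closure (by simp)
  have hvT : v ∈ T := Subgroup.subset_closure (by simp)
  have hAT : A ≤ T := by
    rw [hA, Subgroup.closure_le]
    rintro y (rfl | rfl)
    · rw [SetLike.mem_coe, ← hcomm, commutatorElement_def]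
      exact mul_mem (mul_mem (mul_mem huT hvT) (inv_mem huT)) (inv_mem hvT)
    · exact hvT
  have hne : ¬ u * v = v * u := fun e => hw1 (by rw [← hcomm, commutatorElement_eq_one_iff_mul_comm.2 e])
  have hlt1 : Subgroup.zpowers w < A := lt_of_le_of_ne (Subgroup.zpowers_le.2 hwA) fun e => hne (by
    obtain ⟨i, hi⟩ := Subgroup.mem_zpowers_iff.1 (e.symm ▸ hvA : v ∈ Subgroup.zpowers w)
    rw [← hi]
    exact ((show Commute u w from huw).zpow_right i).eq)
  have hlt2 : A < T := lt_of_le_of_ne hAT fun e => hne (hAc u (e.symm ▸ huT) v hvA)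
  have hTp : IsPGroup p T := hT.to_le hle
  refine (Subgroup.eq_of_le_of_card_ge (hle.trans hS) ?_).symm
  rw [hG S]
  have strict : ∀ {H K : Subgroup G}, H < K → Nat.card H < Nat.card K := fun {H K} h =>
    lt_of_le_of_ne (Subgroup.card_le_of_le h.le) fun e => h.ne (Subgroup.eq_of_le_of_card_ge h.le e.ge)
  have c1 := strict hlt1
  have c2 := strict hlt2
  rw [Nat.card_zpowers, orderOf_eq_prime hw hw1] at c1
  obtain ⟨a, ha⟩ := (IsPGroup.iff_card).1 hAp
  obtain ⟨t, ht⟩ := (IsPGroup.iff_card).1 hTp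
  rw [ha] at c1 c2
  rw [ht] at c2 ⊢
  have h1a : 1 < a := by
    by_contra hh
    have := Nat.pow_le_pow_right (n := p) (Fact.out : p.Prime).pos (show a ≤ 1 by omega)
    rw [pow_one] at this
    omega
  have h2t : a < t := (Nat.pow_lt_pow_iff_right (Fact.out : p.Prime).one_lt).1 c2
  exact Nat.pow_le_pow_right (Fact.out : p.Prime).pos (by omega)

/-- An extraspecial Sylow subgroup `⟨u, v⟩` whose generators are centralized by elements inverting
the commutator. -/
theorem stem_false_extraspecial' [Finite Γ] (hσ : Cfsg.IsStemExtension σ) {p : ℕ} [Fact p.Prime]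
    (hp2 : p ≠ 2) (S : Sylow p Q) {u v g h : Q} (hS : (S : Subgroup Q) = closure {u, v})
    (hu : u ^ p = 1) (hv : v ^ p = 1) (hw : ⁅u, v⁆ ^ p = 1) (hw1 : ⁅u, v⁆ ≠ 1)
    (huw : u * ⁅u, v⁆ = ⁅u, v⁆ * u) (hvw : v * ⁅u, v⁆ = ⁅u, v⁆ * v)
    (hg1 : g * u * g⁻¹ = u) (hg2 : g * ⁅u, v⁆ * g⁻¹ = ⁅u, v⁆⁻¹)
    (hh1 : h * v * h⁻¹ = v) (hh2 : h * ⁅u, v⁆ * h⁻¹ = ⁅u, v⁆⁻¹)
    {z : Γ} (hz : z ∈ σ.ker) (hzo : orderOf z = p) : False := by
  refine stem_false hσ S hz hzo fun x hxk hx => ?_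
  obtain ⟨U, rfl⟩ := hσ.1 u
  obtain ⟨V, rfl⟩ := hσ.1 v
  obtain ⟨G, rfl⟩ := hσ.1 g
  obtain ⟨H, rfl⟩ := hσ.1 h
  rw [← map_commutatorElement] at hw hw1 huw hvw hg2 hh2
  set W := ⁅U, V⁆ with hW
  have hc : ∀ k ∈ σ.ker, ∀ y : Γ, y * k = k * y := fun k hk => mem_center_iff.1 (hσ.2.1 hk)
  have hpow : ∀ {A B c : Γ}, c ∈ σ.ker ∨ (A * c = c * A) → A * B * A⁻¹ = c * B → ∀ n : ℕ,
      A ^ n * B * (A ^ n)⁻¹ = c ^ n * B := by
    intro A B c hcA hconj n
    have hcA' : A * c = c * A := hcA.elim (fun h => hc c h A) id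
    induction n with
    | zero => simp
    | succ n ih =>
      calc A ^ (n + 1) * B * (A ^ (n + 1))⁻¹ = A * (A ^ n * B * (A ^ n)⁻¹) * A⁻¹ := by group
        _ = A * c ^ n * B * A⁻¹ := by rw [ih]; group
        _ = c ^ n * (A * B * A⁻¹) := by rw [(Commute.pow_right hcA' n).eq]; group
        _ = c ^ (n + 1) * B := by rw [hconj, pow_succ]; group
  have key : ∀ {A K : Γ}, σ A ^ p = 1 → σ K * σ A * (σ K)⁻¹ = σ A → σ K * σ W * (σ K)⁻¹ = (σ W)⁻¹ →
      σ A * σ W = σ W * σ A → A * W = W * A := by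
    intro A K hA hK1 hK2 hAW
    have hD : ⁅A, W⁆ ∈ σ.ker := by
      rw [MonoidHom.mem_ker, map_commutatorElement, commutatorElement_eq_one_iff_mul_comm, hAW]
    set D := ⁅A, W⁆ with hDd
    have hconj : A * W * A⁻¹ = D * W := by rw [hDd, commutatorElement_def]; group
    have hDp : D ^ p = 1 := by
      have hAp : A ^ p ∈ σ.ker := by rw [MonoidHom.mem_ker, map_pow, hA]
      have := hpow (Or.inl hD) hconj p
      rw [← hc _ hAp W, mul_inv_cancel_right] at this
      exact mul_eq_right.1 this.symm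
    obtain ⟨k1, hk1, e1⟩ : ∃ k ∈ σ.ker, K * A * K⁻¹ = A * k := by
      refine ⟨A⁻¹ * (K * A * K⁻¹), ?_, (mul_inv_cancel_left _ _).symm⟩
      rw [MonoidHom.mem_ker, map_mul, map_mul, map_mul, map_inv, map_inv, hK1, inv_mul_cancel]
    obtain ⟨k2, hk2, e2⟩ : ∃ k ∈ σ.ker, K * W * K⁻¹ = W⁻¹ * k := by
      refine ⟨W * (K * W * K⁻¹), ?_, (inv_mul_cancel_left _ _).symm⟩
      rw [MonoidHom.mem_ker, map_mul, map_mul, map_mul, map_inv, hK2, mul_inv_cancel]
    have h1 : K * D * K⁻¹ = D := by rw [hc D hD K, mul_inv_cancel_right]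
    have h2 : K * D * K⁻¹ = ⁅K * A * K⁻¹, K * W * K⁻¹⁆ := conjugate_commutatorElement A W K
    rw [h1, e1, e2] at h2
    have h3 : ⁅A * k1, W⁻¹ * k2⁆ = A * W⁻¹ * A⁻¹ * W := by
      have i1 : ∀ y : Γ, k1 * y * k1⁻¹ = y := fun y => by rw [← hc _ hk1 y, mul_inv_cancel_right]
      have i2 : ∀ y : Γ, k2 * y * k2⁻¹ = y := fun y => by rw [← hc _ hk2 y, mul_inv_cancel_right]
      calc ⁅A * k1, W⁻¹ * k2⁆ = A * (k1 * (W⁻¹ * k2) * k1⁻¹) * A⁻¹ * k2⁻¹ * W := by
            rw [commutatorElement_def]; group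
        _ = A * (W⁻¹ * k2) * A⁻¹ * k2⁻¹ * W := by rw [i1]
        _ = A * W⁻¹ * (k2 * A⁻¹ * k2⁻¹) * W := by group
        _ = A * W⁻¹ * A⁻¹ * W := by rw [i2]
    have h4 : A * W⁻¹ * A⁻¹ * W = D⁻¹ := by
      calc A * W⁻¹ * A⁻¹ * W = (A * W * A⁻¹)⁻¹ * W := by group
        _ = W⁻¹ * D⁻¹ * W := by rw [hconj]; group
        _ = D⁻¹ := by rw [hc _ (inv_mem hD) W⁻¹, inv_mul_cancel_right]
    rw [h3, h4] at h2
    have hD2 : D ^ 2 = 1 := by
      rw [pow_two]
      nth_rw 1 [h2]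
      exact inv_mul_cancel D
    have hco : Nat.Coprime 2 p :=
      (Nat.coprime_primes Nat.prime_two (Fact.out : p.Prime)).2 (Ne.symm hp2)
    have hD1 : D = 1 := by
      rw [← orderOf_eq_one_iff]
      exact Nat.eq_one_of_dvd_coprimes hco (orderOf_dvd_of_pow_eq_one hD2) (orderOf_dvd_of_pow_eq_one hDp)
    exact commutatorElement_eq_one_iff_mul_comm.1 hD1
  have hUW : U * W = W * U := key hu hg1 hg2 huw
  have hVW : V * W = W * V := key hv hh1 hh2 hvw
  have hWp : W ^ p = 1 := by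
    have hUp : U ^ p ∈ σ.ker := by rw [MonoidHom.mem_ker, map_pow, hu]
    have := hpow (A := U) (B := V) (c := W) (Or.inr hUW) (by simp [hW, commutatorElement_def, mul_assoc]) p
    rw [← hc _ hUp V, mul_inv_cancel_right] at this
    exact mul_eq_right.1 this.symm
  have hord : orderOf (σ W) = p := orderOf_eq_prime hw hw1
  have hle : (S : Subgroup Q).comap σ ≤ closure {V, U} ⊔ σ.ker := by
    rw [← Subgroup.comap_map_eq, MonoidHom.map_closure, Set.image_pair, hS, Set.pair_comm]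
  have h1 := commutator_sup_center_le (K := closure {V, U}) hσ.2.1 (commutator_mono hle hle hx)
  set K := closure ({V, U} : Set Γ) with hK
  let a : K := ⟨V, subset_closure (by simp)⟩
  let b : K := ⟨U, subset_closure (by simp)⟩
  have hgen : closure ({a, b} : Set K) = ⊤ := by
    apply map_injective (K.subtype_injective)
    rw [MonoidHom.map_closure, Set.image_pair, ← MonoidHom.range_eq_map, range_subtype]
    rfl
  have hac : a * ⁅b, a⁆ * a⁻¹ = ⁅b, a⁆ := by
    apply Subtype.ext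
    show V * W * V⁻¹ = W
    rw [hVW, mul_inv_cancel_right]
  have hbc : b * ⁅b, a⁆ * b⁻¹ = ⁅b, a⁆ := by
    apply Subtype.ext
    show U * W * U⁻¹ = W
    rw [hUW, mul_inv_cancel_right]
  have h2 := Cfsg.Agent.FGS2.commutator_le_zpowers hgen (by rw [hac]; exact mem_zpowers _)
    (by rw [hbc]; exact mem_zpowers _)
  rw [← Subgroup.map_subtype_commutator] at h1
  obtain ⟨k, hk, rfl⟩ := h1
  obtain ⟨i, rfl⟩ := mem_zpowers_iff.1 (h2 hk)
  have hcoe : K.subtype (⁅b, a⁆ ^ i) = W ^ i := by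
    rw [map_zpow, map_commutatorElement]
    rfl
  rw [hcoe] at hxk ⊢
  rw [MonoidHom.mem_ker, map_zpow, ← orderOf_dvd_iff_zpow_eq_one, hord] at hxk
  obtain ⟨j, rfl⟩ := hxk
  rw [zpow_mul, zpow_natCast, hWp, one_zpow]

end Cfsg.Agent.FGS2.He
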