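import Cfsg.Agent.FGS2.He.Act
import Cfsg.Agent.FGS2.He.Collect

/-! Checks on words for the Schur multiplier of the Held group. -/

set_option autoImplicit false
set_option maxRecDepth 100000

namespace Cfsg.Agent.FGS2.He

open Cfsg.Agent.Screen.CosetEnum (bit)

/-- The word of a generator of the Sylow subgroup. -/
def eW (a : ℕ) : List ℕ := hE.getD a []

/-- The word of a product of generators. -/
def flat (w : List ℕ) : List ℕ := (w.map eW).flatten

/-- The word of a class representative. -/
def repW (c : ℕ) : List ℕ := hReps.getD c []

/-- The certificate. -/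
def cert : Collect.Cert := ⟨hTab, hSqs, [], [], hShift, hSel⟩

theorem cert_ok : cert.ok = true := by decide +kernel

theorem rel_ok : ((List.range 10).all fun a => eqB (eW a ++ eW a) (flat (Collect.word hTab a a)) &&
    (List.range 10).all fun b => !(decide (b < a)) ||
      eqB (eW a ++ eW b) (eW b ++ flat (Collect.word hTab a b))) = true := by decide +kernel

theorem reps_sq : ((List.range 2).all fun c => eqB (repW c ++ repW c) []) = true := by decide +kernel

theorem sqs_ok : hSqs.length = hSqsWit.length ∧ ((List.range hSqs.length).all fun i =>
    eqB (hSqsWit.getD i [] ++ repW (hSqs.getD i ([], 0)).2)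
      (flat (hSqs.getD i ([], 0)).1 ++ hSqsWit.getD i [])) = true := by decide +kernel

/-- The point whose orbit shows that a generator is new. -/
def tailX (l : ℕ) : ℕ := (hTail.getD l (0, 0)).1

/-- That orbit. -/
def tailS (l : ℕ) : ℕ := (hTail.getD l (0, 0)).2

theorem tail_ok : ((List.range 10).all fun l => lOK (eW l) && Nat.blt (tailX l) 2058 &&
    bit (tailS l) (tailX l) && !(bit (tailS l) (act (eW l) (tailX l))) &&
    (List.range 10).all fun j => !(decide (l < j)) || stableGo (tailS l) (eW j) 2058) = true := by decide +kernel

end Cfsg.Agent.FGS2.He
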