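import Mathlib.Data.Nat.Notation

/-! Elements of odd order for the Schur multiplier of the Held group. -/

set_option autoImplicit false

namespace Cfsg.Agent.FGS2.He

/-- Two elements of order three and an element inverting them. -/
def hThree : List (List ℕ) := [[5, 4, 3, 1, 2, 3, 5, 1, 2, 3, 6, 1, 2, 3, 2, 3, 5, 1, 2, 3, 1, 2, 3, 5, 4, 1],
    [0, 5, 1, 2, 3, 6, 2, 3, 4, 1, 2, 3, 6, 2, 3, 2, 3, 5, 6, 3, 1, 2, 3, 5, 4, 2, 1],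
    [3, 5, 2, 3, 6, 4, 1, 2, 3, 5, 1, 2, 0, 3, 5, 2, 3, 6, 4, 1, 2, 3, 5, 1, 2, 3]]

/-- Two elements of order five and an element interchanging them. -/
def hFive : List (List ℕ) := [[1, 3, 6, 5, 3, 6, 4, 2, 3, 1, 2, 3, 5, 6, 3, 5, 2, 3, 1, 2, 3, 5, 2, 3, 4, 2, 3],
    [4, 3, 5, 2, 3, 4, 3, 1, 2, 3, 5, 6, 3, 2, 1, 5, 3, 4, 2, 3, 5, 2, 3, 2, 3, 6, 1, 0],
    [3, 0, 5, 2, 3, 1, 2, 3, 5, 1, 2, 3, 4, 2, 1, 3, 6, 4, 3, 2, 3, 5, 6, 3, 1, 2, 3, 1]]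

/-- Two elements of order seven and involutions fixing one of them and inverting the commutator. -/
def hSeven : List (List ℕ) := [[3, 6, 5, 2, 3, 2, 3, 6, 2, 3, 1, 2, 3, 1, 6, 2, 3, 4, 2, 3, 6, 1, 2, 3, 4, 1, 0],
    [2, 3, 5, 1, 2, 3, 6, 2, 3, 4, 1, 0, 2, 3, 2, 3, 5, 6, 3, 1, 2, 3, 5, 4, 3],
    [4, 0, 3, 1, 2, 3, 6, 2, 3, 2, 3, 4, 0, 1, 0],
    [1, 0, 3, 6, 5, 2, 3, 1, 2, 3, 5, 6, 2, 3, 1, 6, 2, 3, 1, 2, 3, 5, 4, 1, 2, 3, 2, 3]]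

end Cfsg.Agent.FGS2.He
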