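import Cfsg.Agent.FGS2.He.Act
import Cfsg.Agent.FGS2.He.OddData

/-! Checks for the odd primes dividing the order of the Held group. -/

set_option autoImplicit false
set_option maxRecDepth 100000

namespace Cfsg.Agent.FGS2.He

/-- A repeated word. -/
def pwW (i : ℕ) (w : List ℕ) : List ℕ := (List.replicate i w).flatten

/-- The elements used at the prime three. -/
def w3 (i : ℕ) : List ℕ := hThree.getD i []

/-- The elements used at the prime five. -/
def w5 (i : ℕ) : List ℕ := hFive.getD i []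

/-- The elements used at the prime seven. -/
def w7 (i : ℕ) : List ℕ := hSeven.getD i []

/-- A commutator word of two elements whose order divides `p`. -/
def cW (p : ℕ) (u v : List ℕ) : List ℕ := u ++ v ++ pwW (p - 1) u ++ pwW (p - 1) v

/-- Two elements generating an extraspecial group of order a cube of `p`. -/
def extraOK (p : ℕ) (u v : List ℕ) : Bool :=
  eqB (pwW p u) [] && eqB (pwW p v) [] && eqB (pwW p (cW p u v)) [] && neB (cW p u v) [] &&
    eqB (u ++ cW p u v) (cW p u v ++ u) && eqB (v ++ cW p u v) (cW p u v ++ v)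

theorem three_ok : extraOK 3 (w3 0) (w3 1) = true ∧
    eqB (w3 2 ++ w3 0) (pwW 2 (w3 0) ++ w3 2) = true ∧ eqB (w3 2 ++ w3 1) (pwW 2 (w3 1) ++ w3 2) = true ∧
    eqB (w3 2 ++ cW 3 (w3 0) (w3 1)) (cW 3 (w3 0) (w3 1) ++ w3 2) = true := by decide +kernel

theorem five_ok : eqB (pwW 5 (w5 0)) [] = true ∧ eqB (pwW 5 (w5 1)) [] = true ∧
    eqB (w5 0 ++ w5 1) (w5 1 ++ w5 0) = true ∧ neB (w5 0) [] = true ∧
    ((List.range 5).all fun i => neB (w5 1) (pwW i (w5 0))) = true ∧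
    eqB (w5 2 ++ w5 0) (w5 1 ++ w5 2) = true ∧ eqB (w5 2 ++ w5 1) (w5 0 ++ w5 2) = true := by decide +kernel

theorem seven_ok : extraOK 7 (w7 0) (w7 1) = true ∧
    eqB (w7 2 ++ w7 0) (w7 0 ++ w7 2) = true ∧ eqB (w7 3 ++ w7 1) (w7 1 ++ w7 3) = true ∧
    eqB (w7 2 ++ cW 7 (w7 0) (w7 1)) (pwW 6 (cW 7 (w7 0) (w7 1)) ++ w7 2) = true ∧
    eqB (w7 3 ++ cW 7 (w7 0) (w7 1)) (pwW 6 (cW 7 (w7 0) (w7 1)) ++ w7 3) = true := by decide +kernel

end Cfsg.Agent.FGS2.He
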