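import Cfsg.Agent.FGS2.He.Two
import Cfsg.Agent.FGS2.He.OddChecks
import Cfsg.Agent.FGS2.SchurTools

/-! The Schur multiplier of the Held group is trivial, given its order. -/

set_option autoImplicit false
set_option maxRecDepth 100000

namespace Cfsg.Agent.FGS2.He

open Cfsg.Agent.FGS4.SchurSylow
open scoped commutatorElement

local notation "Q" => Cfsg.Spor.He

universe u

theorem kE_pwW (i : ℕ) (w : List ℕ) : kE (pwW i w) = kE w ^ i := kE_rep w i

theorem inv_eq_pow {x : Q} {p : ℕ} (hp : 0 < p) (h : x ^ p = 1) : x⁻¹ = x ^ (p - 1) :=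
  inv_eq_of_mul_eq_one_right (by rw [← pow_succ', Nat.sub_add_cancel hp, h])

theorem kE_cW (hcard : Nat.card Q = 4030387200) {p : ℕ} (hp : 0 < p) {u v : List ℕ}
    (hu : eqB (pwW p u) [] = true) (hv : eqB (pwW p v) [] = true) : ⁅kE u, kE v⁆ = kE (cW p u v) := by
  have hu' : kE u ^ p = 1 := by rw [← kE_pwW]; exact kE_one hcard hu
  have hv' : kE v ^ p = 1 := by rw [← kE_pwW]; exact kE_one hcard hv
  rw [cW, kE_append, kE_append, kE_append, kE_pwW, kE_pwW, ← inv_eq_pow hp hu', ← inv_eq_pow hp hv']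
  exact commutatorElement_def _ _

theorem extra_spec (hcard : Nat.card Q = 4030387200) {p : ℕ} (hp : 0 < p) {u v : List ℕ}
    (h : extraOK p u v = true) : kE u ^ p = 1 ∧ kE v ^ p = 1 ∧ ⁅kE u, kE v⁆ = kE (cW p u v) ∧
      ⁅kE u, kE v⁆ ^ p = 1 ∧ ⁅kE u, kE v⁆ ≠ 1 ∧ kE u * ⁅kE u, kE v⁆ = ⁅kE u, kE v⁆ * kE u ∧
      kE v * ⁅kE u, kE v⁆ = ⁅kE u, kE v⁆ * kE v := by
  simp only [extraOK, Bool.and_eq_true] at h
  obtain ⟨⟨⟨⟨⟨hu, hv⟩, hc⟩, hne⟩, huc⟩, hvc⟩ := h
  have e := kE_cW hcard hp hu hv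
  refine ⟨?_, ?_, e, ?_, ?_, ?_, ?_⟩
  · rw [← kE_pwW]; exact kE_one hcard hu
  · rw [← kE_pwW]; exact kE_one hcard hv
  · rw [e, ← kE_pwW]; exact kE_one hcard hc
  · rw [e, ← kE_nil]; exact kE_ne hne
  · rw [e, ← kE_append, ← kE_append]; exact kE_eq hcard huc
  · rw [e, ← kE_append, ← kE_append]; exact kE_eq hcard hvc

theorem three_false (hcard : Nat.card Q = 4030387200) {Γ : Type u} [Group Γ] [Finite Γ] {σ : Γ →* Q}
    (hσ : Cfsg.IsStemExtension σ) {z : Γ} (hz : z ∈ σ.ker) (hzo : orderOf z = 3) : False := by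
  haveI := finite_of_card hcard
  haveI : Fact (Nat.Prime 3) := ⟨Nat.prime_three⟩
  obtain ⟨hx, gu, gv, gc⟩ := three_ok
  obtain ⟨hu, hv, hce, hw, hw1, huw, hvw⟩ := extra_spec hcard (by norm_num) hx
  have gu' : kE (w3 2) * kE (w3 0) * (kE (w3 2))⁻¹ = (kE (w3 0))⁻¹ := mul_inv_eq_iff_eq_mul.2 (by
    rw [inv_eq_pow (by norm_num) hu, ← kE_pwW, ← kE_append, ← kE_append]; exact kE_eq hcard gu)
  have gv' : kE (w3 2) * kE (w3 1) * (kE (w3 2))⁻¹ = (kE (w3 1))⁻¹ := mul_inv_eq_iff_eq_mul.2 (by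
    rw [inv_eq_pow (by norm_num) hv, ← kE_pwW, ← kE_append, ← kE_append]; exact kE_eq hcard gv)
  have gw : kE (w3 2) * ⁅kE (w3 0), kE (w3 1)⁆ = ⁅kE (w3 0), kE (w3 1)⁆ * kE (w3 2) := by
    rw [hce, ← kE_append, ← kE_append]; exact kE_eq hcard gc
  obtain ⟨S, hS⟩ := extraspecial_sylow
    (fun S => J2.SchurTwoClass.sylow_card hcard Nat.prime_three (k := 3) (by norm_num) (by norm_num) S)
    hu hv hw rfl huw hvw hw1
  exact stem_false_extraspecial hσ (by norm_num) S hS hu hv hw hw1 huw hvw gu' gw gv' gw hz hzo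

theorem five_false (hcard : Nat.card Q = 4030387200) {Γ : Type u} [Group Γ] [Finite Γ] {σ : Γ →* Q}
    (hσ : Cfsg.IsStemExtension σ) {z : Γ} (hz : z ∈ σ.ker) (hzo : orderOf z = 5) : False := by
  haveI := finite_of_card hcard
  haveI : Fact (Nat.Prime 5) := ⟨by norm_num⟩
  obtain ⟨u5, v5, uv, u1, hne, g1, g2⟩ := five_ok
  have u5' : kE (w5 0) ^ 5 = 1 := by rw [← kE_pwW]; exact kE_one hcard u5
  have v5' : kE (w5 1) ^ 5 = 1 := by rw [← kE_pwW]; exact kE_one hcard v5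
  have uv' : kE (w5 0) * kE (w5 1) = kE (w5 1) * kE (w5 0) := by
    rw [← kE_append, ← kE_append]; exact kE_eq hcard uv
  obtain ⟨S, hS⟩ := J2.SchurTwoClass.five_sylow
    (fun S => J2.SchurTwoClass.sylow_card hcard (by norm_num) (k := 2) (by norm_num) (by norm_num) S)
    u5' v5' uv' (by rw [← kE_nil]; exact kE_ne u1) (fun i hi => by
      rw [← kE_pwW]
      exact kE_ne (List.all_eq_true.1 hne i (List.mem_range.2 hi)))
  exact stem_false_swap hσ (by norm_num) S (g := kE (w5 2)) hS u5' uv'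
    (by rw [← kE_append, ← kE_append]; exact kE_eq hcard g1) (by rw [← kE_append, ← kE_append]; exact kE_eq hcard g2)
    hz hzo

theorem seven_false (hcard : Nat.card Q = 4030387200) {Γ : Type u} [Group Γ] [Finite Γ] {σ : Γ →* Q}
    (hσ : Cfsg.IsStemExtension σ) {z : Γ} (hz : z ∈ σ.ker) (hzo : orderOf z = 7) : False := by
  haveI := finite_of_card hcard
  haveI : Fact (Nat.Prime 7) := ⟨by norm_num⟩
  obtain ⟨hx, gu, hvg, gc, hc⟩ := seven_ok
  obtain ⟨hu, hv, hce, hw, hw1, huw, hvw⟩ := extra_spec hcard (by norm_num) hx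
  have gu' : kE (w7 2) * kE (w7 0) * (kE (w7 2))⁻¹ = kE (w7 0) := mul_inv_eq_iff_eq_mul.2 (by
    rw [← kE_append, ← kE_append]; exact kE_eq hcard gu)
  have hv' : kE (w7 3) * kE (w7 1) * (kE (w7 3))⁻¹ = kE (w7 1) := mul_inv_eq_iff_eq_mul.2 (by
    rw [← kE_append, ← kE_append]; exact kE_eq hcard hvg)
  have gw : kE (w7 2) * ⁅kE (w7 0), kE (w7 1)⁆ * (kE (w7 2))⁻¹ = ⁅kE (w7 0), kE (w7 1)⁆⁻¹ :=
    mul_inv_eq_iff_eq_mul.2 (by
      rw [inv_eq_pow (by norm_num) hw, hce, ← kE_pwW, ← kE_append, ← kE_append]; exact kE_eq hcard gc)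
  have hw' : kE (w7 3) * ⁅kE (w7 0), kE (w7 1)⁆ * (kE (w7 3))⁻¹ = ⁅kE (w7 0), kE (w7 1)⁆⁻¹ :=
    mul_inv_eq_iff_eq_mul.2 (by
      rw [inv_eq_pow (by norm_num) hw, hce, ← kE_pwW, ← kE_append, ← kE_append]; exact kE_eq hcard hc)
  obtain ⟨S, hS⟩ := extraspecial_sylow
    (fun S => J2.SchurTwoClass.sylow_card hcard (by norm_num) (k := 3) (by norm_num) (by norm_num) S)
    hu hv hw rfl huw hvw hw1
  exact stem_false_extraspecial' hσ (by norm_num) S hS hu hv hw hw1 huw hvw gu' gw hv' hw' hz hzo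

theorem ker_bot (hcard : Nat.card Q = 4030387200) {Γ : Type u} [Group Γ] [Finite Γ] (σ : Γ →* Q)
    (hσ : Cfsg.IsStemExtension σ) : σ.ker = ⊥ := by
  haveI := finite_of_card hcard
  by_contra hne
  obtain ⟨q, hq, hqd⟩ := Nat.exists_prime_and_dvd (mt Subgroup.card_eq_one.1 hne)
  haveI := Fact.mk hq
  obtain ⟨⟨z, hz⟩, hzo⟩ := exists_prime_orderOf_dvd_card' q hqd
  rw [← Subgroup.orderOf_coe] at hzo
  change orderOf z = q at hzo
  by_cases h2 : q = 2
  · subst h2; exact two_false hcard hσ hz hzo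
  by_cases h3 : q = 3
  · subst h3; exact three_false hcard hσ hz hzo
  by_cases h5 : q = 5
  · subst h5; exact five_false hcard hσ hz hzo
  by_cases h7 : q = 7
  · subst h7; exact seven_false hcard hσ hz hzo
  obtain ⟨S⟩ := Sylow.nonempty (p := q) (G := Q)
  refine stem_false_cyclic hσ S ?_ hz hzo
  by_cases hd : q ∣ 4030387200
  · have h17 : q = 17 := by
      rw [show (4030387200 : ℕ) = 2 ^ 10 * 3 ^ 3 * 5 ^ 2 * 7 ^ 3 * 17 by norm_num] at hd
      have hp : ∀ {r : ℕ}, r.Prime → q ∣ r → q = r := fun hr h => (Nat.prime_dvd_prime_iff_eq hq hr).1 h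
      rcases (Nat.Prime.dvd_mul hq).1 hd with h | h
      rotate_left
      · exact hp (by norm_num) h
      rcases (Nat.Prime.dvd_mul hq).1 h with h | h
      rotate_left
      · exact absurd (hp (by norm_num) (hq.dvd_of_dvd_pow h)) h7
      rcases (Nat.Prime.dvd_mul hq).1 h with h | h
      rotate_left
      · exact absurd (hp (by norm_num) (hq.dvd_of_dvd_pow h)) h5
      rcases (Nat.Prime.dvd_mul hq).1 h with h | h
      · exact absurd (hp Nat.prime_two (hq.dvd_of_dvd_pow h)) h2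
      · exact absurd (hp Nat.prime_three (hq.dvd_of_dvd_pow h)) h3
    subst h17
    exact isCyclic_of_prime_card (p := 17) (by
      rw [J2.SchurTwoClass.sylow_card hcard hq (k := 1) (by norm_num) (by norm_num) S, pow_one])
  · have h0 := J2.SchurTwoClass.sylow_card hcard hq (k := 0) (by simp) (by rwa [pow_one]) S
    rw [pow_zero] at h0
    haveI : Subsingleton (S : Subgroup Q) := (Nat.card_eq_one_iff_unique.1 h0).1
    infer_instance

theorem schur_multiplier (hcard : Nat.card Q = 4030387200) : Cfsg.HasCyclicSchurMultiplier Q 1 :=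
  haveI := finite_of_card hcard
  FGS2.hasCyclic_one_of_stem_ker_eq_bot fun _ _ _ σ hσ => ker_bot hcard σ hσ

end Cfsg.Agent.FGS2.He
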